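import Cfsg.Agent.Lib.Helper4.O720.NC

set_option autoImplicit false

/-! Farm O720 (helper74), piece NCG (helper4). -/

namespace Cfsg.Agent.Lib.Helper74.O720

variable {G : Type*} [Group G] [Finite G]

theorem NCG {p : ℕ} [Fact p.Prime] (H Q : Subgroup G) (hQH : Q ≤ H) (hQp : IsPGroup p Q)
    (hQ : ¬ p ∣ Nat.card H / Nat.card Q) (hN : Nz Q ⊓ H ≤ Cz Q) :
    ∃ V : Subgroup G, V ≤ H ∧ Nat.card V * Nat.card Q = Nat.card H ∧ Nz H ≤ Nz V := by
  have hQ0p : IsPGroup p (Q.subgroupOf H) :=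
    hQp.of_equiv (Subgroup.subgroupOfEquivOfLe hQH).symm
  have hQ0c : Nat.card (Q.subgroupOf H) = Nat.card Q :=
    Nat.card_congr (Subgroup.subgroupOfEquivOfLe hQH).toEquiv
  have hidx : (Q.subgroupOf H).index = Nat.card H / Nat.card Q := by
    have h1 := (Q.subgroupOf H).index_mul_card
    rw [hQ0c] at h1
    exact (Nat.div_eq_of_eq_mul_left Nat.card_pos h1.symm).symm
  have hnd : ¬ p ∣ (Q.subgroupOf H).index := by rw [hidx]; exact hQ
  let P : Sylow p H := hQ0p.toSylow hnd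
  have hP : (P : Subgroup H) = Q.subgroupOf H := hQ0p.toSylow_coe hnd
  have hNC : Subgroup.normalizer ((P : Subgroup H) : Set H) ≤
      Subgroup.centralizer ((P : Subgroup H) : Set H) := by
    rw [hP, ← Subgroup.subgroupOf_normalizer_eq hQH]
    intro n hn
    rw [Subgroup.mem_subgroupOf] at hn
    have h1 : (n : G) ∈ Cz Q := hN ⟨hn, n.2⟩
    rw [Subgroup.mem_centralizer_iff] at h1 ⊢
    intro y hy
    exact Subtype.ext (h1 (y : G) hy)
  obtain ⟨V0, hV0, hcard⟩ := NC P hNC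
  have hPc : Nat.card P = Nat.card Q := by
    have : Nat.card P = Nat.card (P : Subgroup H) := rfl
    rw [this, hP, hQ0c]
  refine ⟨V0.map H.subtype, Subgroup.map_subtype_le _, ?_, ?_⟩
  · rw [Subgroup.card_map_of_injective (Subgroup.subtype_injective _), ← hPc]
    exact hcard
  · intro n hn
    have hfix : ∀ v : H, H.normalizerMonoidHom ⟨n, hn⟩ v ∈ V0 ↔ v ∈ V0 := by
      intro v
      have := hV0.fixed (H.normalizerMonoidHom ⟨n, hn⟩)
      conv_rhs => rw [← this]
      rfl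
    rw [Subgroup.mem_normalizer_iff]
    intro x
    constructor
    · rintro ⟨v, hv, rfl⟩
      exact ⟨H.normalizerMonoidHom ⟨n, hn⟩ v, (hfix v).2 hv, rfl⟩
    · rintro ⟨w, hw, hwx⟩
      have hxH : x ∈ H := by
        have hn' := (Subgroup.mem_normalizer_iff.1 hn x).2
        apply hn'
        rw [← hwx]
        exact w.2
      refine ⟨⟨x, hxH⟩, (hfix ⟨x, hxH⟩).1 ?_, rfl⟩
      have : H.normalizerMonoidHom ⟨n, hn⟩ ⟨x, hxH⟩ = w := Subtype.ext hwx.symm
      rw [this]
      exact hw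

end Cfsg.Agent.Lib.Helper74.O720
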