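import Cfsg.Agent.Lib.Helper74.O720.Defs
import Cfsg.Agent.Lib.Helper24.Hall

set_option autoImplicit false

/-! Farm O720 (helper74), piece NC (helper4). -/

namespace Cfsg.Agent.Lib.Helper74.O720

theorem NC {H : Type*} [Group H] [Finite H] {p : ℕ} [Fact p.Prime] (P : Sylow p H)
    (hN : Subgroup.normalizer ((P : Subgroup H) : Set H) ≤ Subgroup.centralizer ((P : Subgroup H) : Set H)) :
    ∃ V : Subgroup H, V.Characteristic ∧ Nat.card V * Nat.card P = Nat.card H := by
  have hc := MonoidHom.ker_transferSylow_isComplement' P hN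
  have hcard : Nat.card (MonoidHom.transferSylow P hN).ker * Nat.card P = Nat.card H :=
    hc.card_mul_card
  refine ⟨(MonoidHom.transferSylow P hN).ker, ?_, hcard⟩
  apply Cfsg.Agent.Lib.Helper24.characteristic_of_normal_of_coprime
  rw [hc.symm.index_eq_card, ← hc.index_eq_card]
  exact (P.card_coprime_index).symm

end Cfsg.Agent.Lib.Helper74.O720
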