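import Cfsg.Agent.Lib.Helper74.O720.Defs
import Cfsg.Agent.Lib.Helper17.Basic
import Cfsg.Agent.Lib.Helper54.O720.T2

set_option autoImplicit false
set_option linter.unusedSectionVars false

/-! Farm O720 (helper74), piece T2: `n3` itself is in `Helper54.O720.T2` (landed first, re-exported by this
import, so that importing both files is harmless); here only the extra `T2_aut_trivial` (helper4). -/

namespace Cfsg.Agent.Lib.Helper74.O720

open Subgroup Cfsg.Agent.Lib.Helper17

theorem T2_aut_trivial {P : Type*} [Group P] (hP : Nat.card P = 9) (K : Subgroup (MulAut P))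
    (hK : IsPGroup 5 K) : K = ⊥ := by
  have : Fact (Nat.Prime 5) := ⟨by norm_num⟩
  have : Finite P := Nat.finite_of_card_ne_zero (by rw [hP]; norm_num)
  have h1 := hK.card_modEq_card_fixedPoints P
  have h2 : Nat.card (FixedPoints.subgroup K P) ∣ 9 := by
    rw [← hP]; exact (FixedPoints.subgroup K P).card_subgroup_dvd_card
  have h1' : Nat.card P ≡ Nat.card (FixedPoints.subgroup K P) [MOD 5] := h1
  rw [hP] at h1'
  have h3 : Nat.card (FixedPoints.subgroup K P) = 9 := by
    unfold Nat.ModEq at h1'
    generalize Nat.card (FixedPoints.subgroup K P) = n at *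
    have hle : n ≤ 9 := Nat.le_of_dvd (by norm_num) h2
    interval_cases n <;> omega
  have h4 : FixedPoints.subgroup K P = ⊤ := Subgroup.eq_top_of_card_eq _ (by rw [hP]; exact h3)
  rw [eq_bot_iff]
  intro σ hσ
  rw [Subgroup.mem_bot]
  ext x
  have hx : x ∈ FixedPoints.subgroup K P := h4 ▸ Subgroup.mem_top x
  exact hx ⟨σ, hσ⟩

end Cfsg.Agent.Lib.Helper74.O720
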